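/-
Words in simple reflections and their action on points, for the tabulated permutation representations.
-/
import Cfsg.Agent.Lib.Coxeter.Chain

set_option autoImplicit false

namespace Cfsg.Agent.Lib.Coxeter.Words

open Equiv
open Cfsg.Agent.Lib.Coxeter.Chain

variable {n : ℕ} (M : CoxeterMatrix (Fin n)) {N : ℕ} {tb : List ℕ} {mm : List (List ℕ)}

/-- Products of generators indexed by naturals. -/
noncomputable def wordN (L : List ℕ) : M.Group := (L.map (genN M)).prod

@[simp] lemma wordN_nil : wordN M [] = 1 := rfl

lemma wordN_cons (a : ℕ) (L : List ℕ) : wordN M (a :: L) = genN M a * wordN M L := by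
  simp [wordN]

lemma pi_genN (h1 : checkInvol n N tb = true) (h2 : ∀ i j : Fin n, tabM mm i j = M i j) (h3 : checkRel n N tb mm = true)
    (s x : ℕ) : (mkAct M h1 h2 h3).π (genN M s) x = tabT n N tb s x := by
  by_cases hs : s < n
  · exact (mkAct M h1 h2 h3).hπ s hs x
  · have h0 : genN M s = 1 := by simp [genN, hs]
    rw [h0]
    simp [tabT, hs]

lemma pi_wordN (h1 : checkInvol n N tb = true) (h2 : ∀ i j : Fin n, tabM mm i j = M i j) (h3 : checkRel n N tb mm = true)
    (L : List ℕ) (x : ℕ) : (mkAct M h1 h2 h3).π (wordN M L) x = L.foldr (tabT n N tb) x := by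
  induction L with
  | nil => simp
  | cons a L ih =>
    rw [wordN_cons, map_mul, Perm.mul_apply, ih, pi_genN, List.foldr_cons]

lemma finRange_val : (List.finRange n).map Fin.val = List.range n := by
  apply List.ext_getElem
  · simp
  · intro i h₁ h₂
    simp

/-- The Coxeter element. -/
noncomputable abbrev coxE : M.Group := ((List.finRange n).map M.simple).prod

lemma coxE_eq : coxE M = wordN M (List.range n) := by
  unfold coxE wordN
  rw [← finRange_val, List.map_map]
  congr 1
  apply List.map_congr_left
  intro i _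
  simp [genN]

lemma pi_cox (h1 : checkInvol n N tb = true) (h2 : ∀ i j : Fin n, tabM mm i j = M i j) (h3 : checkRel n N tb mm = true)
    (x : ℕ) : (mkAct M h1 h2 h3).π (coxE M) x = coxT n N tb x := by
  rw [coxE_eq, pi_wordN]
  rfl

lemma pi_cox_pow (h1 : checkInvol n N tb = true) (h2 : ∀ i j : Fin n, tabM mm i j = M i j) (h3 : checkRel n N tb mm = true)
    (k x : ℕ) : (mkAct M h1 h2 h3).π (coxE M ^ k) x = (coxT n N tb)^[k] x := by
  rw [map_pow, ← Equiv.Perm.iterate_eq_pow]
  have : ⇑((mkAct M h1 h2 h3).π (coxE M)) = coxT n N tb := funext (pi_cox M h1 h2 h3)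
  rw [this]

lemma tabT_out {s x : ℕ} (hx : ¬ x < N) : tabT n N tb s x = x := by
  simp [tabT, hx]

lemma tabT_lt (h1 : checkInvol n N tb = true) {s x : ℕ} (hx : x < N) : tabT n N tb s x < N := by
  by_cases hs : s < n
  · simp only [checkInvol, List.all_eq_true, List.mem_range, Bool.and_eq_true,
      decide_eq_true_eq] at h1
    exact (h1 s hs x hx).1
  · simpa [tabT, hs] using hx

/-- Every element is a word in the simple reflections. -/
lemma exists_word (w : M.Group) : ∃ L : List ℕ, w = wordN M L := by
  obtain ⟨ω, rfl⟩ := M.toCoxeterSystem.wordProd_surjective w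
  refine ⟨ω.map Fin.val, ?_⟩
  unfold CoxeterSystem.wordProd wordN
  rw [List.map_map]
  congr 1
  apply List.map_congr_left
  intro i _
  simp [genN]

/-- The action preserves the range of points. -/
lemma pi_lt (h1 : checkInvol n N tb = true) (h2 : ∀ i j : Fin n, tabM mm i j = M i j) (h3 : checkRel n N tb mm = true)
    (w : M.Group) {x : ℕ} (hx : x < N) : (mkAct M h1 h2 h3).π w x < N := by
  obtain ⟨L, rfl⟩ := exists_word M w
  rw [pi_wordN]
  induction L with
  | nil => simpa using hx
  | cons a L ih =>
    rw [List.foldr_cons]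
    exact tabT_lt h1 ih

/-- Points outside the range are fixed. -/
lemma pi_out (h1 : checkInvol n N tb = true) (h2 : ∀ i j : Fin n, tabM mm i j = M i j) (h3 : checkRel n N tb mm = true)
    (w : M.Group) {x : ℕ} (hx : ¬ x < N) : (mkAct M h1 h2 h3).π w x = x := by
  obtain ⟨L, rfl⟩ := exists_word M w
  rw [pi_wordN]
  induction L with
  | nil => simp
  | cons a L ih =>
    rw [List.foldr_cons, ih]
    exact tabT_out hx

/-- Equality of group elements from their action on the points. -/
lemma eq_of_points (h1 : checkInvol n N tb = true) (h2 : ∀ i j : Fin n, tabM mm i j = M i j) (h3 : checkRel n N tb mm = true)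
    (hinj : Function.Injective (mkAct M h1 h2 h3).π) {a b : M.Group}
    (h : ∀ x, x < N → (mkAct M h1 h2 h3).π a x = (mkAct M h1 h2 h3).π b x) : a = b := by
  apply hinj
  ext x
  by_cases hx : x < N
  · exact h x hx
  · rw [pi_out M h1 h2 h3 a hx, pi_out M h1 h2 h3 b hx]

lemma genN_fin (i : Fin n) : genN M i = M.simple i := by
  simp [genN]

/-- A subgroup containing the simple reflections is everything. -/
lemma eq_top_of_simple (H : Subgroup M.Group) (h : ∀ i : Fin n, M.simple i ∈ H) : H = ⊤ := by
  rw [eq_top_iff, ← M.toCoxeterSystem.subgroup_closure_range_simple, Subgroup.closure_le]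
  rintro _ ⟨i, rfl⟩
  exact h i

end Cfsg.Agent.Lib.Coxeter.Words
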