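/-
Centres of the Weyl groups of types B₂, G₂, D₄, F₄, E₆, E₇, E₈.
-/
import Cfsg.Agent.Lib.Coxeter.Words
import Cfsg.Agent.Lib.Coxeter.Data

set_option autoImplicit false

namespace Cfsg.Agent.Lib.Coxeter.CenterCox

open Equiv
open Cfsg.Agent.Lib.Coxeter.Chain Cfsg.Agent.Lib.Coxeter.Words Cfsg.Agent.Lib.Coxeter.Data

/-- Data check for the fixed points of the stabilizer. -/
def checkCenter (n N : ℕ) (tb : List ℕ) (J' : List ℕ) (x₀ x₁ : ℕ) (bases : List ℕ) (words : List (List ℕ)) : Bool :=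
  decide (x₀ < N) &&
  J'.all (fun s => decide (s < n) && decide (tabT n N tb s x₀ = x₀)) &&
  (List.range N).all (fun y => !(J'.all fun s => decide (tabT n N tb s y = y)) || decide (y = x₀) || decide (y = x₁)) &&
  bases.all (fun b => words.any fun L => decide (L.foldr (tabT n N tb) x₀ = b))

/-- Check that a power of the Coxeter element is central. -/
def checkCentral (n N : ℕ) (tb : List ℕ) (k : ℕ) : Bool :=
  (List.range n).all fun s => (List.range N).all fun x =>
    decide ((coxT n N tb)^[k] (tabT n N tb s x) = tabT n N tb s ((coxT n N tb)^[k] x))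

section

variable {n : ℕ} (M : CoxeterMatrix (Fin n)) {N : ℕ} {tb : List ℕ} {mm : List (List ℕ)}
variable (h1 : checkInvol n N tb = true) (h2 : ∀ i j : Fin n, tabM mm i j = M i j) (h3 : checkRel n N tb mm = true)

include h1 h2 h3

lemma pi_comm_of_center {z : M.Group} (hz : z ∈ Subgroup.center M.Group) (w : M.Group) (x : ℕ) :
    (mkAct M h1 h2 h3).π z ((mkAct M h1 h2 h3).π w x) = (mkAct M h1 h2 h3).π w ((mkAct M h1 h2 h3).π z x) := by
  have h := Subgroup.mem_center_iff.1 hz w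
  rw [← Perm.mul_apply, ← map_mul, ← h, map_mul, Perm.mul_apply]

lemma fix_dichotomy {J' : List ℕ} {x₀ x₁ : ℕ} {bases : List ℕ} {words : List (List ℕ)}
    (hc : checkCenter n N tb J' x₀ x₁ bases words = true) {z : M.Group} (hz : z ∈ Subgroup.center M.Group) :
    (mkAct M h1 h2 h3).π z x₀ = x₀ ∨ (mkAct M h1 h2 h3).π z x₀ = x₁ := by
  simp only [checkCenter, Bool.and_eq_true, decide_eq_true_eq, List.all_eq_true, Bool.or_eq_true, List.mem_range,
    Bool.not_eq_true', List.all_eq_false] at hc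
  obtain ⟨⟨⟨h4, h5⟩, h6⟩, _⟩ := hc
  set y := (mkAct M h1 h2 h3).π z x₀ with hy
  have hyN : y < N := pi_lt M h1 h2 h3 z h4
  rcases h6 y hyN with (h7 | h7) | h7
  · exfalso
    obtain ⟨s, hs, hs2⟩ := h7
    apply hs2
    have h8 := h5 s hs
    have h9 := pi_comm_of_center M h1 h2 h3 hz (genN M s) x₀
    rw [pi_genN, h8.2, pi_genN] at h9
    exact h9.symm
  · exact Or.inl h7
  · exact Or.inr h7

lemma eq_one_of_fix {J' : List ℕ} {x₀ x₁ : ℕ} {words : List (List ℕ)} {ls : List Link}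
    (hchain : checkChain (tabT n N tb) (tabM mm) n (List.range n) ls = true)
    (hc : checkCenter n N tb J' x₀ x₁ (ls.map Link.b) words = true) {z : M.Group} (hz : z ∈ Subgroup.center M.Group)
    (hfix : (mkAct M h1 h2 h3).π z x₀ = x₀) : z = 1 := by
  obtain ⟨_, h5⟩ := (mkAct M h1 h2 h3).chain_sound ls (List.range n) hchain
  rw [mkAct_sub_top] at h5
  apply h5 z (Subgroup.mem_top z)
  intro l hl
  simp only [checkCenter, Bool.and_eq_true, decide_eq_true_eq, List.all_eq_true, List.any_eq_true] at hc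
  obtain ⟨L, _, hL⟩ := hc.2 l.b (List.mem_map.2 ⟨l, hl, rfl⟩)
  rw [← hL, ← pi_wordN M h1 h2 h3, pi_comm_of_center M h1 h2 h3 hz, hfix]

lemma inj_of_chain {ls : List Link} (hchain : checkChain (tabT n N tb) (tabM mm) n (List.range n) ls = true) :
    Function.Injective (mkAct M h1 h2 h3).π :=
  (card_and_inj M h1 h2 h3 ls hchain).2

lemma central_of_check {k : ℕ} {ls : List Link}
    (hchain : checkChain (tabT n N tb) (tabM mm) n (List.range n) ls = true)
    (hk : checkCentral n N tb k = true) : coxE M ^ k ∈ Subgroup.center M.Group := by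
  have hinj := inj_of_chain M h1 h2 h3 hchain
  have hgen : ∀ s, genN M s * coxE M ^ k = coxE M ^ k * genN M s := by
    intro s
    by_cases hs : s < n
    · apply eq_of_points M h1 h2 h3 hinj
      intro x hx
      rw [map_mul, map_mul, Perm.mul_apply, Perm.mul_apply, pi_genN, pi_genN, pi_cox_pow, pi_cox_pow]
      simp only [checkCentral, List.all_eq_true, List.mem_range, decide_eq_true_eq] at hk
      exact (hk s hs x hx).symm
    · simp [genN, hs]
  rw [Subgroup.mem_center_iff]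
  intro g
  obtain ⟨L, rfl⟩ := exists_word M g
  induction L with
  | nil => simp
  | cons a L ih =>
    rw [wordN_cons, mul_assoc, ih, ← mul_assoc, hgen, mul_assoc]

/-- The centre has order two, generated by a power of the Coxeter element. -/
theorem center_two {J' : List ℕ} {x₀ k : ℕ} {words : List (List ℕ)} {ls : List Link}
    (hchain : checkChain (tabT n N tb) (tabM mm) n (List.range n) ls = true)
    (hc : checkCenter n N tb J' x₀ ((coxT n N tb)^[k] x₀) (ls.map Link.b) words = true)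
    (hk : checkCentral n N tb k = true) (hne : (coxT n N tb)^[k] x₀ ≠ x₀) :
    Nat.card (Subgroup.center M.Group) = 2 ∧ Subgroup.center M.Group ≤ Subgroup.zpowers (coxE M) := by
  have hw₀ := central_of_check M h1 h2 h3 hchain hk
  have hcl : ∀ z, z ∈ Subgroup.center M.Group → z = 1 ∨ z = coxE M ^ k := by
    intro z hz
    rcases fix_dichotomy M h1 h2 h3 hc hz with h | h
    · exact Or.inl (eq_one_of_fix M h1 h2 h3 hchain hc hz h)
    · right
      have hz' : (coxE M ^ k)⁻¹ * z ∈ Subgroup.center M.Group :=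
        Subgroup.mul_mem _ (Subgroup.inv_mem _ hw₀) hz
      have h4 : (mkAct M h1 h2 h3).π ((coxE M ^ k)⁻¹ * z) x₀ = x₀ := by
        rw [map_mul, Perm.mul_apply, h, ← pi_cox_pow M h1 h2 h3, map_inv]
        simp
      have h5 := eq_one_of_fix M h1 h2 h3 hchain hc hz' h4
      exact (inv_mul_eq_one.1 h5).symm
  have hne1 : coxE M ^ k ≠ 1 := by
    intro h
    apply hne
    rw [← pi_cox_pow M h1 h2 h3, h]
    simp
  constructor
  · rw [Nat.card_eq_two_iff]
    refine ⟨⟨1, Subgroup.one_mem _⟩, ⟨coxE M ^ k, hw₀⟩, ?_, ?_⟩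
    · intro h
      exact hne1 (congrArg Subtype.val h).symm
    · ext ⟨z, hz⟩
      simp only [Set.mem_insert_iff, Set.mem_singleton_iff, Set.mem_univ, iff_true, Subtype.mk.injEq]
      exact hcl z hz
  · intro z hz
    rcases hcl z hz with rfl | rfl
    · exact Subgroup.one_mem _
    · exact Subgroup.pow_mem _ (Subgroup.mem_zpowers _) _

omit h1 h2 h3 in
/-- Elements of a parabolic subgroup preserve a closed set of points. -/
lemma sub_preserves {W : Type*} [Group W] (A : Act W) {J : List ℕ} {S : List ℕ}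
    (hS : ∀ s ∈ J, s < A.n ∧ ∀ x ∈ S, A.T s x ∈ S) {w : W} (hw : w ∈ A.Sub J) :
    ∀ x ∈ S, A.π w x ∈ S := by
  have key : ∀ x ∈ S, A.π w x ∈ S ∧ A.π w⁻¹ x ∈ S := by
    unfold Act.Sub at hw
    induction hw using Subgroup.closure_induction with
    | mem y hy =>
      obtain ⟨s, hs, rfl⟩ := hy
      obtain ⟨h4, h5⟩ := hS s hs
      have h6 : (A.g s)⁻¹ = A.g s := inv_eq_of_mul_eq_one_left (A.hg s h4)
      intro x hx
      rw [h6, A.hπ s h4]
      exact ⟨h5 x hx, h5 x hx⟩
    | one => intro x hx; simpa using hx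
    | mul a b _ _ ha hb =>
      intro x hx
      rw [mul_inv_rev, map_mul, map_mul, Perm.mul_apply, Perm.mul_apply]
      exact ⟨(ha _ (hb x hx).1).1, (hb _ (ha x hx).2).2⟩
    | inv a _ ha =>
      intro x hx
      rw [inv_inv]
      exact ⟨(ha x hx).2, (ha x hx).1⟩
  exact fun x hx => (key x hx).1

end

set_option maxRecDepth 1000000

/-- A chain for `B₂` with base points in one orbit. -/
def linksB2L : List Link := [⟨[1], 0, 8, codeB20, 4, 4⟩, ⟨[], 2, 8, 0x211, 1, 2⟩]

theorem chainB2L : checkChain (tabT 2 8 tbB2) (tabM mmB2) 2 (List.range 2) linksB2L = true := by decide +kernel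

/-- A chain for `F₄` with base points in one orbit. -/
def linksF4L : List Link := [
  ⟨[0, 1, 2], 0, 48, 0x2f232f132f032e332e122e022d222d312d012a112a302820270027322712242228102530240025202510200020311e111e021b231a3320211a111a0215221b131b031433141214021122150111310f1111010b110f200b300a000a230a130733082007000712052208300810050005310211023202020122011301030033, 63, 24⟩,
  ⟨[0, 1], 1, 48, 0x14121402112211010b11082007000712052208100500021102020122, 14, 8⟩,
  ⟨[0], 2, 48, 0x81005000211, 3, 3⟩,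
  ⟨[], 5, 48, 0x500, 1, 2⟩
]

theorem chainF4L : checkChain (tabT 4 48 tbF4) (tabM mmF4) 4 (List.range 4) linksF4L = true := by decide +kernel

theorem centerB2 : Nat.card (Subgroup.center (CoxeterMatrix.B 2).Group) = 2 ∧
    Subgroup.center (CoxeterMatrix.B 2).Group ≤ Subgroup.zpowers (((List.finRange 2).map (CoxeterMatrix.B 2).simple).prod) :=
  center_two (CoxeterMatrix.B 2) involB2 mmB2_eq relB2 (J' := [1]) (x₀ := 0) (k := 2)
    (words := [[], [0]]) chainB2L (by decide +kernel) (by decide +kernel) (by decide +kernel)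

theorem centerG2 : Nat.card (Subgroup.center (CoxeterMatrix.G₂).Group) = 2 ∧
    Subgroup.center (CoxeterMatrix.G₂).Group ≤ Subgroup.zpowers (((List.finRange 2).map (CoxeterMatrix.G₂).simple).prod) :=
  center_two (CoxeterMatrix.G₂) involG2 mmG2_eq relG2 (J' := [0]) (x₀ := 0) (k := 3)
    (words := [[], [1]]) chainG2 (by decide +kernel) (by decide +kernel) (by decide +kernel)

theorem centerD4 : Nat.card (Subgroup.center (Cfsg.Lie.coxeterD4).Group) = 2 ∧
    Subgroup.center (Cfsg.Lie.coxeterD4).Group ≤ Subgroup.zpowers (((List.finRange 4).map (Cfsg.Lie.coxeterD4).simple).prod) :=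
  center_two (Cfsg.Lie.coxeterD4) involD4 mmD4_eq relD4 (J' := [0, 2, 3]) (x₀ := 0) (k := 3)
    (words := [[], [1, 2, 0, 1], [1, 3, 0, 1], [1]]) chainD4 (by decide +kernel) (by decide +kernel) (by decide +kernel)

theorem centerF4 : Nat.card (Subgroup.center (CoxeterMatrix.F₄).Group) = 2 ∧
    Subgroup.center (CoxeterMatrix.F₄).Group ≤ Subgroup.zpowers (((List.finRange 4).map (CoxeterMatrix.F₄).simple).prod) :=
  center_two (CoxeterMatrix.F₄) involF4 mmF4_eq relF4 (J' := [0, 1, 2]) (x₀ := 0) (k := 6)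
    (words := [[], [3], [2, 3], [1, 2, 3]]) chainF4L (by decide +kernel) (by decide +kernel) (by decide +kernel)

theorem centerE7 : Nat.card (Subgroup.center (CoxeterMatrix.E₇).Group) = 2 ∧
    Subgroup.center (CoxeterMatrix.E₇).Group ≤ Subgroup.zpowers (((List.finRange 7).map (CoxeterMatrix.E₇).simple).prod) :=
  center_two (CoxeterMatrix.E₇) involE7 mmE7_eq relE7 (J' := [1, 2, 3, 4, 5, 6]) (x₀ := 0) (k := 9)
    (words := [[], [0], [2, 0], [3, 4, 5, 6, 2, 3, 4, 5, 0, 2, 3, 4, 1, 3, 2, 0], [3, 2, 0], [4, 3, 2, 0], [5, 4, 3, 2, 0]]) chainE7 (by decide +kernel) (by decide +kernel) (by decide +kernel)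

theorem centerE8 : Nat.card (Subgroup.center (CoxeterMatrix.E₈).Group) = 2 ∧
    Subgroup.center (CoxeterMatrix.E₈).Group ≤ Subgroup.zpowers (((List.finRange 8).map (CoxeterMatrix.E₈).simple).prod) :=
  center_two (CoxeterMatrix.E₈) involE8 mmE8_eq relE8 (J' := [0, 1, 2, 3, 4, 5, 6]) (x₀ := 0) (k := 15)
    (words := [[], [7], [6, 7], [5, 4, 3, 2, 1, 3, 4, 5, 6, 7], [5, 6, 7], [0, 2, 3, 4, 5, 6, 7], [4, 5, 6, 7], [3, 4, 5, 6, 7]]) chainE8 (by decide +kernel) (by decide +kernel) (by decide +kernel)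

/-- The centre of the Weyl group of type `E₆` is trivial. -/
theorem centerE6_eq (z : CoxeterMatrix.E₆.Group) (hz : z ∈ Subgroup.center CoxeterMatrix.E₆.Group) : z = 1 := by
  have hc : checkCenter 6 72 tbE6 [0, 2, 3, 4, 5] 0 71 (linksE6.map Link.b) [[], [1], [3, 2, 1, 3, 4, 0, 2, 3, 1], [3, 1], [2, 3, 1]] = true := by decide +kernel
  rcases fix_dichotomy CoxeterMatrix.E₆ involE6 mmE6_eq relE6 hc hz with h | h
  · exact eq_one_of_fix CoxeterMatrix.E₆ involE6 mmE6_eq relE6 chainE6 hc hz h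
  · exfalso
    set A := mkAct CoxeterMatrix.E₆ involE6 mmE6_eq relE6 with hA
    have hinj : Function.Injective A.π := (card_and_inj CoxeterMatrix.E₆ involE6 mmE6_eq relE6 linksE6 chainE6).2
    have s0 : checkStep A.T A.m A.n (List.range 6) [0, 2, 3, 4, 5] 0 72 codeE60 301 72 = true := by
      change checkStep (tabT 6 72 tbE6) (tabM mmE6) 6 (List.range 6) [0, 2, 3, 4, 5] 0 72 codeE60 301 72 = true
      decide +kernel
    have s1 : checkStep A.T A.m A.n [0, 2, 3, 4, 5] [0, 2, 4, 5] 1 72 codeE61 66 20 = true := by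
      change checkStep (tabT 6 72 tbE6) (tabM mmE6) 6 [0, 2, 3, 4, 5] [0, 2, 4, 5] 1 72 codeE61 66 20 = true
      decide +kernel
    have hU0 : List.foldr (tabT 6 72 tbE6) 0 [1, 3, 4, 2, 3, 0, 2, 1, 3, 4, 5, 4, 3, 2, 1, 3, 4, 0, 2, 3, 1] = 71 := by decide +kernel
    set U0 : CoxeterMatrix.E₆.Group := wordN CoxeterMatrix.E₆ [1, 3, 4, 2, 3, 0, 2, 1, 3, 4, 5, 4, 3, 2, 1, 3, 4, 0, 2, 3, 1] with hU0d
    set U1 : CoxeterMatrix.E₆.Group := wordN CoxeterMatrix.E₆ [3, 4, 5, 2, 3, 4, 0, 2, 3] with hU1d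
    have hpU0 : ∀ x, A.π U0 x = List.foldr (tabT 6 72 tbE6) x [1, 3, 4, 2, 3, 0, 2, 1, 3, 4, 5, 4, 3, 2, 1, 3, 4, 0, 2, 3, 1] := fun x => pi_wordN CoxeterMatrix.E₆ involE6 mmE6_eq relE6 _ x
    have hpU1 : ∀ x, A.π U1 x = List.foldr (tabT 6 72 tbE6) x [3, 4, 5, 2, 3, 4, 0, 2, 3] := fun x => pi_wordN CoxeterMatrix.E₆ involE6 mmE6_eq relE6 _ x
    have hsub1 : A.Sub (List.range 6) = ⊤ := mkAct_sub_top CoxeterMatrix.E₆ involE6 mmE6_eq relE6
    have hg1 : U0⁻¹ * z ∈ A.Sub [0, 2, 3, 4, 5] := by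
      apply (A.step s0).2
      · rw [hsub1]; exact Subgroup.mem_top _
      · rw [map_mul, Perm.mul_apply, h, map_inv, Perm.inv_eq_iff_eq, hpU0]
        exact hU0.symm
    have hU1mem : U1 ∈ A.Sub [0, 2, 3, 4, 5] := by
      apply Subgroup.list_prod_mem
      intro y hy
      obtain ⟨a, ha, rfl⟩ := List.mem_map.1 hy
      apply Subgroup.subset_closure
      refine ⟨a, ?_, rfl⟩
      change a ∈ ([0, 2, 3, 4, 5] : List ℕ)
      simp only [List.mem_cons, List.not_mem_nil, or_false] at ha ⊢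
      omega
    -- values of `z`
    have hz1 : A.π z 1 = 70 := by
      have h4 := pi_comm_of_center CoxeterMatrix.E₆ involE6 mmE6_eq relE6 hz (wordN CoxeterMatrix.E₆ [1]) 0
      rw [h, pi_wordN, pi_wordN] at h4
      have e1 : List.foldr (tabT 6 72 tbE6) 0 [1] = 1 := by decide +kernel
      have e2 : List.foldr (tabT 6 72 tbE6) 71 [1] = 70 := by decide +kernel
      rw [e1, e2] at h4
      exact h4
    have hz25 : A.π z 25 = 46 := by
      have h4 := pi_comm_of_center CoxeterMatrix.E₆ involE6 mmE6_eq relE6 hz (wordN CoxeterMatrix.E₆ [3, 2, 1, 3, 4, 0, 2, 3, 1]) 0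
      rw [h, pi_wordN, pi_wordN] at h4
      have e1 : List.foldr (tabT 6 72 tbE6) 0 [3, 2, 1, 3, 4, 0, 2, 3, 1] = 25 := by decide +kernel
      have e2 : List.foldr (tabT 6 72 tbE6) 71 [3, 2, 1, 3, 4, 0, 2, 3, 1] = 46 := by decide +kernel
      rw [e1, e2] at h4
      exact h4
    have hg2 : U1⁻¹ * (U0⁻¹ * z) ∈ A.Sub [0, 2, 4, 5] := by
      apply (A.step s1).2
      · exact Subgroup.mul_mem _ (Subgroup.inv_mem _ hU1mem) hg1
      · simp only [map_mul, Perm.mul_apply, map_inv]
        rw [hz1, Perm.inv_eq_iff_eq, Perm.inv_eq_iff_eq, hpU1, hpU0]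
        decide +kernel
    have hS : ∀ s ∈ ([0, 2, 4, 5] : List ℕ), s < A.n ∧ ∀ x ∈ ([25, 30, 31, 40, 41, 46] : List ℕ), A.T s x ∈ ([25, 30, 31, 40, 41, 46] : List ℕ) := by
      change ∀ s ∈ ([0, 2, 4, 5] : List ℕ), s < 6 ∧ ∀ x ∈ ([25, 30, 31, 40, 41, 46] : List ℕ), tabT 6 72 tbE6 s x ∈ ([25, 30, 31, 40, 41, 46] : List ℕ)
      decide +kernel
    have h5 := sub_preserves A hS hg2 25 (by decide)
    have h6 : A.π (U1⁻¹ * (U0⁻¹ * z)) 25 = 42 := by
      simp only [map_mul, Perm.mul_apply, map_inv]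
      rw [hz25, Perm.inv_eq_iff_eq, Perm.inv_eq_iff_eq, hpU1, hpU0]
      decide +kernel
    rw [h6] at h5
    exact absurd h5 (by decide)

theorem centerE6 : Nat.card (Subgroup.center CoxeterMatrix.E₆.Group) = 1 ∧
    Subgroup.center CoxeterMatrix.E₆.Group ≤ Subgroup.zpowers (((List.finRange 6).map CoxeterMatrix.E₆.simple).prod) := by
  have h : Subgroup.center CoxeterMatrix.E₆.Group = ⊥ := by
    rw [eq_bot_iff]
    intro z hz
    rw [Subgroup.mem_bot]
    exact centerE6_eq z hz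
  rw [h]
  constructor
  · simp
  · exact bot_le

end Cfsg.Agent.Lib.Coxeter.CenterCox
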