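/-
Weyl groups are generated by a Coxeter element and one or two reflections.
-/
import Cfsg.Agent.Lib.Coxeter.Words
import Cfsg.Agent.Lib.Coxeter.Data

set_option autoImplicit false

namespace Cfsg.Agent.Lib.Coxeter.GenCox

open Equiv
open Cfsg.Agent.Lib.Coxeter.Chain Cfsg.Agent.Lib.Coxeter.Words Cfsg.Agent.Lib.Coxeter.Data

/-- The action of a letter. -/
def evL (n N : ℕ) (tb : List ℕ) (ts : List ℕ) : ℕ → ℕ → ℕ
  | 0, x => coxT n N tb x
  | k + 1, x => tabT n N tb (ts.getD k 0) x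

/-- The check that a list of letters expresses all simple reflections. -/
def checkGen (n N : ℕ) (tb ts : List ℕ) (certs : List (List ℕ × List ℕ)) : Bool :=
  (List.range n).all fun i =>
    let c := certs.getD i ([], [])
    c.1.all (fun a => decide (a ≤ ts.length)) && c.2.all (fun a => decide (a ≤ ts.length)) &&
      (List.range N).all fun x =>
        decide (c.1.foldr (evL n N tb ts) (c.2.foldr (evL n N tb ts) x) = tabT n N tb i (c.1.foldr (evL n N tb ts) x))

variable {n : ℕ} (M : CoxeterMatrix (Fin n)) {N : ℕ} {tb : List ℕ} {mm : List (List ℕ)}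

/-- The value of a letter. -/
noncomputable def valL (ts : List ℕ) : ℕ → M.Group
  | 0 => coxE M
  | k + 1 => genN M (ts.getD k 0)

/-- The value of a word of letters. -/
noncomputable def valW (ts : List ℕ) (w : List ℕ) : M.Group := (w.map (valL M ts)).prod

lemma pi_valW (h1 : checkInvol n N tb = true) (h2 : ∀ i j : Fin n, tabM mm i j = M i j) (h3 : checkRel n N tb mm = true)
    (ts w : List ℕ) (x : ℕ) : (mkAct M h1 h2 h3).π (valW M ts w) x = w.foldr (evL n N tb ts) x := by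
  induction w with
  | nil => simp [valW]
  | cons a w ih =>
    have e : valW M ts (a :: w) = valL M ts a * valW M ts w := by simp [valW]
    rw [e, map_mul, Perm.mul_apply, ih, List.foldr_cons]
    cases a with
    | zero => exact pi_cox M h1 h2 h3 _
    | succ k => exact pi_genN M h1 h2 h3 _ _

lemma valW_mem (ts : List ℕ) (H : Subgroup M.Group) (hcox : coxE M ∈ H)
    (hts : ∀ k, k < ts.length → genN M (ts.getD k 0) ∈ H) (w : List ℕ) (hw : w.all (fun a => decide (a ≤ ts.length)) = true) :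
    valW M ts w ∈ H := by
  apply Subgroup.list_prod_mem
  intro y hy
  obtain ⟨a, ha, rfl⟩ := List.mem_map.1 hy
  have h4 := List.all_eq_true.1 hw a ha
  simp only [decide_eq_true_eq] at h4
  cases a with
  | zero => exact hcox
  | succ k => exact hts k (by omega)

theorem closure_top (h1 : checkInvol n N tb = true) (h2 : ∀ i j : Fin n, tabM mm i j = M i j) (h3 : checkRel n N tb mm = true)
    (hinj : Function.Injective (mkAct M h1 h2 h3).π) (ts : List ℕ) (certs : List (List ℕ × List ℕ))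
    (hc : checkGen n N tb ts certs = true) (H : Subgroup M.Group) (hcox : coxE M ∈ H)
    (hts : ∀ k, k < ts.length → genN M (ts.getD k 0) ∈ H) : H = ⊤ := by
  apply eq_top_of_simple
  intro i
  have h := List.all_eq_true.1 hc i (List.mem_range.2 i.2)
  simp only [Bool.and_eq_true, List.all_eq_true, decide_eq_true_eq, List.mem_range] at h
  obtain ⟨⟨ha, hb⟩, hx⟩ := h
  set c := certs.getD i ([], []) with hcdef
  have hg : valW M ts c.1 ∈ H := valW_mem M ts H hcox hts _ (by simpa using ha)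
  have hw : valW M ts c.2 ∈ H := valW_mem M ts H hcox hts _ (by simpa using hb)
  have heq : valW M ts c.1 * valW M ts c.2 = M.simple i * valW M ts c.1 := by
    apply eq_of_points M h1 h2 h3 hinj
    intro x hxN
    rw [map_mul, map_mul, Perm.mul_apply, Perm.mul_apply, pi_valW, pi_valW, pi_valW, hx x hxN, ← genN_fin M i, pi_genN]
  have h5 : M.simple i = valW M ts c.1 * valW M ts c.2 * (valW M ts c.1)⁻¹ := by
    rw [heq]
    group
  rw [h5]
  exact H.mul_mem (H.mul_mem hg hw) (H.inv_mem hg)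

theorem exists_T1 (h1 : checkInvol n N tb = true) (h2 : ∀ i j : Fin n, tabM mm i j = M i j) (h3 : checkRel n N tb mm = true)
    (hinj : Function.Injective (mkAct M h1 h2 h3).π) (i₀ : Fin n) (certs : List (List ℕ × List ℕ))
    (hc : checkGen n N tb [i₀.val] certs = true) :
    ∃ T : Finset M.Group, T.card = 1 ∧ (∀ t ∈ T, ∃ (g : M.Group) (i : Fin n), t = g * M.simple i * g⁻¹) ∧
      Subgroup.closure (({((List.finRange n).map M.simple).prod} : Set M.Group) ∪ ↑T) = ⊤ := by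
  classical
  refine ⟨{M.simple i₀}, by simp, ?_, ?_⟩
  · intro t ht
    rw [Finset.mem_singleton] at ht
    exact ⟨1, i₀, by simp [ht]⟩
  · apply closure_top M h1 h2 h3 hinj [i₀.val] certs hc
    · exact Subgroup.subset_closure (Or.inl rfl)
    · intro k hk
      have hk0 : k = 0 := by simpa using hk
      subst hk0
      have : genN M (([i₀.val] : List ℕ).getD 0 0) = M.simple i₀ := by
        simp [genN_fin]
      rw [this]
      exact Subgroup.subset_closure (Or.inr (by simp))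

theorem exists_T2 (h1 : checkInvol n N tb = true) (h2 : ∀ i j : Fin n, tabM mm i j = M i j) (h3 : checkRel n N tb mm = true)
    (hinj : Function.Injective (mkAct M h1 h2 h3).π) (i₀ i₁ : Fin n) (x : ℕ) (hx : tabT n N tb i₀ x ≠ tabT n N tb i₁ x)
    (certs : List (List ℕ × List ℕ))
    (hc : checkGen n N tb [i₀.val, i₁.val] certs = true) :
    ∃ T : Finset M.Group, T.card = 2 ∧ (∀ t ∈ T, ∃ (g : M.Group) (i : Fin n), t = g * M.simple i * g⁻¹) ∧
      Subgroup.closure (({((List.finRange n).map M.simple).prod} : Set M.Group) ∪ ↑T) = ⊤ := by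
  classical
  have hne : M.simple i₀ ≠ M.simple i₁ := by
    intro h
    apply hx
    rw [← pi_genN M h1 h2 h3, ← pi_genN M h1 h2 h3, genN_fin, genN_fin, h]
  refine ⟨{M.simple i₀, M.simple i₁}, Finset.card_pair hne, ?_, ?_⟩
  · intro t ht
    rw [Finset.mem_insert, Finset.mem_singleton] at ht
    rcases ht with ht | ht
    · exact ⟨1, i₀, by simp [ht]⟩
    · exact ⟨1, i₁, by simp [ht]⟩
  · apply closure_top M h1 h2 h3 hinj [i₀.val, i₁.val] certs hc
    · exact Subgroup.subset_closure (Or.inl rfl)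
    · intro k hk
      have hk2 : k = 0 ∨ k = 1 := by
        simp at hk
        omega
      rcases hk2 with rfl | rfl
      · have : genN M (([i₀.val, i₁.val] : List ℕ).getD 0 0) = M.simple i₀ := by
          simp [genN_fin]
        rw [this]
        exact Subgroup.subset_closure (Or.inr (by simp))
      · have : genN M (([i₀.val, i₁.val] : List ℕ).getD 1 0) = M.simple i₁ := by
          simp [genN_fin]
        rw [this]
        exact Subgroup.subset_closure (Or.inr (by simp))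

set_option maxRecDepth 1000000

def certsB2 : List (List ℕ × List ℕ) := [([], [1]), ([], [1, 0])]

theorem checkB2 : checkGen 2 8 tbB2 [0] certsB2 = true := by decide +kernel

theorem genB2 : ∃ T : Finset (CoxeterMatrix.B 2).Group, T.card = 1 ∧ (∀ t ∈ T, ∃ (g : (CoxeterMatrix.B 2).Group) (i : Fin 2), t = g * (CoxeterMatrix.B 2).simple i * g⁻¹) ∧
    Subgroup.closure (({((List.finRange 2).map (CoxeterMatrix.B 2).simple).prod} : Set (CoxeterMatrix.B 2).Group) ∪ ↑T) = ⊤ :=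
  exists_T1 (CoxeterMatrix.B 2) involB2 mmB2_eq relB2 (card_and_inj (CoxeterMatrix.B 2) involB2 mmB2_eq relB2 linksB2 chainB2).2 ⟨0, by norm_num⟩ certsB2 checkB2

def certsG2 : List (List ℕ × List ℕ) := [([], [1]), ([], [1, 0])]

theorem checkG2 : checkGen 2 12 tbG2 [0] certsG2 = true := by decide +kernel

theorem genG2 : ∃ T : Finset (CoxeterMatrix.G₂).Group, T.card = 1 ∧ (∀ t ∈ T, ∃ (g : (CoxeterMatrix.G₂).Group) (i : Fin 2), t = g * (CoxeterMatrix.G₂).simple i * g⁻¹) ∧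
    Subgroup.closure (({((List.finRange 2).map (CoxeterMatrix.G₂).simple).prod} : Set (CoxeterMatrix.G₂).Group) ∪ ↑T) = ⊤ :=
  exists_T1 (CoxeterMatrix.G₂) involG2 mmG2_eq relG2 (card_and_inj (CoxeterMatrix.G₂) involG2 mmG2_eq relG2 linksG2 chainG2).2 ⟨0, by norm_num⟩ certsG2 checkG2

def certsD4 : List (List ℕ × List ℕ) := [([], [1]), ([0], [1]), ([], [2]), ([0, 2, 0], [1])]

theorem checkD4 : checkGen 4 24 tbD4 [0, 2] certsD4 = true := by decide +kernel

theorem genD4 : ∃ T : Finset (Cfsg.Lie.coxeterD4).Group, T.card = 2 ∧ (∀ t ∈ T, ∃ (g : (Cfsg.Lie.coxeterD4).Group) (i : Fin 4), t = g * (Cfsg.Lie.coxeterD4).simple i * g⁻¹) ∧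
    Subgroup.closure (({((List.finRange 4).map (Cfsg.Lie.coxeterD4).simple).prod} : Set (Cfsg.Lie.coxeterD4).Group) ∪ ↑T) = ⊤ := by
  have hx : ∃ x, x < 24 ∧ tabT 4 24 tbD4 0 x ≠ tabT 4 24 tbD4 2 x := by decide +kernel
  obtain ⟨x, _, hx⟩ := hx
  exact exists_T2 (Cfsg.Lie.coxeterD4) involD4 mmD4_eq relD4 (card_and_inj (Cfsg.Lie.coxeterD4) involD4 mmD4_eq relD4 linksD4 chainD4).2 ⟨0, by norm_num⟩ ⟨2, by norm_num⟩ x hx certsD4 checkD4

def certsF4 : List (List ℕ × List ℕ) := [([], [1]), ([0], [1]), ([], [2]), ([0], [2])]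

theorem checkF4 : checkGen 4 48 tbF4 [0, 2] certsF4 = true := by decide +kernel

theorem genF4 : ∃ T : Finset (CoxeterMatrix.F₄).Group, T.card = 2 ∧ (∀ t ∈ T, ∃ (g : (CoxeterMatrix.F₄).Group) (i : Fin 4), t = g * (CoxeterMatrix.F₄).simple i * g⁻¹) ∧
    Subgroup.closure (({((List.finRange 4).map (CoxeterMatrix.F₄).simple).prod} : Set (CoxeterMatrix.F₄).Group) ∪ ↑T) = ⊤ := by
  have hx : ∃ x, x < 48 ∧ tabT 4 48 tbF4 0 x ≠ tabT 4 48 tbF4 2 x := by decide +kernel
  obtain ⟨x, _, hx⟩ := hx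
  exact exists_T2 (CoxeterMatrix.F₄) involF4 mmF4_eq relF4 (card_and_inj (CoxeterMatrix.F₄) involF4 mmF4_eq relF4 linksF4 chainF4).2 ⟨0, by norm_num⟩ ⟨2, by norm_num⟩ x hx certsF4 checkF4

def certsE6 : List (List ℕ × List ℕ) := [([], [1]), ([0, 0, 1, 0, 0, 0], [1]), ([0], [1]), ([0, 0, 0, 0, 0], [1]), ([0, 0, 0, 0, 0, 0], [1]), ([0, 0, 0, 0, 0, 0, 0], [1])]

theorem checkE6 : checkGen 6 72 tbE6 [0] certsE6 = true := by decide +kernel

theorem genE6 : ∃ T : Finset (CoxeterMatrix.E₆).Group, T.card = 1 ∧ (∀ t ∈ T, ∃ (g : (CoxeterMatrix.E₆).Group) (i : Fin 6), t = g * (CoxeterMatrix.E₆).simple i * g⁻¹) ∧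
    Subgroup.closure (({((List.finRange 6).map (CoxeterMatrix.E₆).simple).prod} : Set (CoxeterMatrix.E₆).Group) ∪ ↑T) = ⊤ :=
  exists_T1 (CoxeterMatrix.E₆) involE6 mmE6_eq relE6 (card_and_inj (CoxeterMatrix.E₆) involE6 mmE6_eq relE6 linksE6 chainE6).2 ⟨0, by norm_num⟩ certsE6 checkE6

def certsE7 : List (List ℕ × List ℕ) := [([0, 0, 0, 1, 0, 0], [1]), ([], [1]), ([0, 0, 0, 0, 1, 0, 0], [1]), ([1, 0, 0, 0, 0, 0, 1, 0, 0], [1]), ([0, 1, 0, 0, 0, 0, 0, 1, 0, 0], [1]), ([0, 0, 1, 0, 0, 0, 0, 0, 1, 0, 0], [1]), ([0, 0, 0, 1, 0, 0, 0, 0, 0, 1, 0, 0], [1])]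

theorem checkE7 : checkGen 7 126 tbE7 [1] certsE7 = true := by decide +kernel

theorem genE7 : ∃ T : Finset (CoxeterMatrix.E₇).Group, T.card = 1 ∧ (∀ t ∈ T, ∃ (g : (CoxeterMatrix.E₇).Group) (i : Fin 7), t = g * (CoxeterMatrix.E₇).simple i * g⁻¹) ∧
    Subgroup.closure (({((List.finRange 7).map (CoxeterMatrix.E₇).simple).prod} : Set (CoxeterMatrix.E₇).Group) ∪ ↑T) = ⊤ :=
  exists_T1 (CoxeterMatrix.E₇) involE7 mmE7_eq relE7 (card_and_inj (CoxeterMatrix.E₇) involE7 mmE7_eq relE7 linksE7 chainE7).2 ⟨1, by norm_num⟩ certsE7 checkE7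

def certsE8 : List (List ℕ × List ℕ) := [([], [1]), ([0, 0, 1, 0, 0, 1, 0, 0, 0], [1]), ([0], [1]), ([0, 0, 0, 0, 1, 0, 0, 0], [1]), ([0, 0, 0, 0, 0, 1, 0, 0, 0], [1]), ([0, 0, 0, 0, 0, 0, 1, 0, 0, 0], [1]), ([0, 0, 0, 0, 0, 0, 0, 1, 0, 0, 0], [1]), ([0, 0, 0, 0, 0, 0, 0, 0, 1, 0, 0, 0], [1])]

theorem checkE8 : checkGen 8 240 tbE8 [0] certsE8 = true := by decide +kernel

theorem genE8 : ∃ T : Finset (CoxeterMatrix.E₈).Group, T.card = 1 ∧ (∀ t ∈ T, ∃ (g : (CoxeterMatrix.E₈).Group) (i : Fin 8), t = g * (CoxeterMatrix.E₈).simple i * g⁻¹) ∧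
    Subgroup.closure (({((List.finRange 8).map (CoxeterMatrix.E₈).simple).prod} : Set (CoxeterMatrix.E₈).Group) ∪ ↑T) = ⊤ :=
  exists_T1 (CoxeterMatrix.E₈) involE8 mmE8_eq relE8 (card_and_inj (CoxeterMatrix.E₈) involE8 mmE8_eq relE8 linksE8 chainE8).2 ⟨0, by norm_num⟩ certsE8 checkE8


end Cfsg.Agent.Lib.Coxeter.GenCox
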